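import Cfsg.Prelude.Def_Solvable
import Cfsg.Agent.FGS2.SameOrderConj
import Mathlib.Tactic

/-!
# Two primes, prime exponents and no mixed element orders

A solvable group in which every element has order dividing one of two distinct primes has a Sylow
subgroup of prime order that is a Frobenius complement. The proof uses norm maps on a minimal
normal subgroup.
-/

set_option autoImplicit false
set_option linter.style.haveILetI false

namespace Cfsg.Agent.FGS5.PrimeOrders

open Subgroup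
open scoped Pointwise

/-- If the norms of a subgroup and of a transversal family of elements vanish, so does `v ^ #Q`. -/
theorem pow_card_eq_one {H V : Type*} [Group H] [CommGroup V] (φ : H →* MulAut V) (Q : Subgroup H)
    [Fintype Q] (v : V) (hQ : ∀ u : V, ∏ x : Q, φ (x : H) u = 1) (w : H) {p : ℕ} (hp : p ≠ 0)
    (e : Q → H) (he : ∀ k, ∏ i ∈ Finset.range p, φ (e k ^ i) v = 1)
    (hmem : ∀ (k : Q) (i : ℕ), e k ^ i * (w ^ i)⁻¹ ∈ Q)
    (hinj : ∀ i, i ≠ 0 → i < p → Function.Injective fun k => e k ^ i * (w ^ i)⁻¹) :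
    v ^ Fintype.card Q = 1 := by
  classical
  have h1 : ∏ k : Q, ∏ i ∈ Finset.range p, φ (e k ^ i) v = 1 := Finset.prod_eq_one fun k _ => he k
  rw [Finset.prod_comm] at h1
  rw [Finset.prod_eq_single_of_mem 0 (Finset.mem_range.2 (Nat.pos_of_ne_zero hp)) (fun i hi hi0 => ?_)] at h1
  · simpa using h1
  let σ : Q → Q := fun k => ⟨_, hmem k i⟩
  have hσ : Function.Bijective σ := Finite.injective_iff_bijective.mp fun a b e =>
    hinj i hi0 (Finset.mem_range.1 hi) (congrArg Subtype.val e)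
  rw [← hQ (φ (w ^ i) v)]
  refine Fintype.prod_bijective σ hσ _ _ fun k => ?_
  show φ (e k ^ i) v = φ (e k ^ i * (w ^ i)⁻¹) (φ (w ^ i) v)
  rw [← MulAut.mul_apply, ← map_mul, inv_mul_cancel_right]

theorem mul_pow_eq {G V : Type*} [Group G] [CommGroup V] (ι : V →* G)
    (φ : G →* MulAut V) (hφ : ∀ g (u : V), ι (φ g u) = g * ι u * g⁻¹) (v : V) (g : G) (n : ℕ) :
    (ι v * g) ^ n = ι (∏ i ∈ Finset.range n, φ (g ^ i) v) * g ^ n := by
  induction n with
  | zero => rw [pow_zero, pow_zero, Finset.prod_range_zero, map_one, one_mul]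
  | succ n ih =>
    rw [pow_succ, ih, Finset.prod_range_succ, map_mul, hφ, pow_succ]
    group

theorem main {G : Type*} [Group G] [Finite G] [Group.IsSolvable G] {p q : ℕ} (hp : p.Prime)
    (hq : q.Prime) (hne : p ≠ q) (hdp : p ∣ Nat.card G) (hdq : q ∣ Nat.card G)
    (hord : ∀ g : G, g ^ p = 1 ∨ g ^ q = 1) :
    ∃ C : Subgroup G, Cfsg.IsFrobeniusComplement C ∧ (Nat.card C).Prime := by
  classical
  have : Nontrivial G := by
    refine Finite.one_lt_card_iff_nontrivial.mp (lt_of_lt_of_le hp.one_lt ?_)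
    exact Nat.le_of_dvd Nat.card_pos hdp
  obtain ⟨l, N, hl, hN, hN1, hNl, hmin⟩ := FGS2.SameOrderConj.exists_minimal_normal (G := G)
  have := Fact.mk hl
  haveI := hN
  have hNab : ∀ a ∈ N, ∀ b ∈ N, a * b = b * a := by
    have h1 : ⁅N, N⁆ = ⊥ := by
      by_contra hb
      exact (Group.IsSolvable.commutator_lt_of_ne_bot hN1).ne
        (hmin _ inferInstance (commutator_le_self N) hb)
    exact fun a ha b hb => (mem_centralizer_iff.1 (commutator_eq_bot_iff_le_centralizer.1 h1 ha) b hb).symm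
  -- rename the primes so that `N` is a `p`-group
  obtain ⟨v₀, hv₀⟩ : ∃ v : N, orderOf v = l :=
    exists_prime_orderOf_dvd_card' l (by
      obtain ⟨j, hj⟩ := IsPGroup.iff_card.mp hNl
      rw [hj]
      exact dvd_pow_self l fun h0 => hN1 (Subgroup.card_eq_one.mp (by rw [hj, h0, pow_zero])))
  have hlpq : l = p ∨ l = q := by
    rw [← Subgroup.orderOf_coe] at hv₀
    rcases hord (v₀ : G) with h | h
    · exact Or.inl ((Nat.prime_dvd_prime_iff_eq hl hp).mp (hv₀ ▸ orderOf_dvd_of_pow_eq_one h))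
    · exact Or.inr ((Nat.prime_dvd_prime_iff_eq hl hq).mp (hv₀ ▸ orderOf_dvd_of_pow_eq_one h))
  wlog hlp : l = p generalizing p q
  · exact this hq hp hne.symm hdq hdp (fun g => (hord g).symm) hlpq.symm (hlpq.resolve_left hlp)
  subst hlp
  rename_i hl' _
  have := Fact.mk hq
  have hco : (l : ℕ).Coprime q := (Nat.coprime_primes hl hq).mpr hne
  -- no mixed orders
  have hnc : ∀ x y : G, x ^ l = 1 → y ^ q = 1 → Commute x y → x = 1 ∨ y = 1 := by
    intro x y hx hy hc
    have hcl : ∀ (z : G) {r s : ℕ}, r.Coprime s → z ^ r = 1 → z ^ s = 1 → z = 1 := fun z r s hrs h1 h2 =>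
      orderOf_eq_one_iff.mp (Nat.eq_one_of_dvd_coprimes hrs (orderOf_dvd_of_pow_eq_one h1)
        (orderOf_dvd_of_pow_eq_one h2))
    rcases hord (x * y) with h | h <;> rw [hc.mul_pow] at h
    · rw [hx, one_mul] at h; exact Or.inr (hcl y hco h hy)
    · rw [hy, mul_one] at h; exact Or.inl (hcl x hco hx h)
  have hNexp : ∀ v ∈ N, v ^ l = 1 := by
    intro v hv
    refine (hord v).elim id fun h => ?_
    obtain ⟨j, hj⟩ := hNl ⟨v, hv⟩
    have hj' : v ^ l ^ j = 1 := congrArg Subtype.val hj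
    have : v = 1 := orderOf_eq_one_iff.mp (Nat.eq_one_of_dvd_coprimes (Nat.Coprime.pow_left j hco)
      (orderOf_dvd_of_pow_eq_one hj') (orderOf_dvd_of_pow_eq_one h))
    rw [this, one_pow]
  letI : CommGroup N := { (inferInstance : Group N) with
    mul_comm := fun a b => Subtype.ext (hNab a a.2 b b.2) }
  let φ : G →* MulAut N := MulAut.conjNormal
  have hφ : ∀ g (u : N), ((φ g u : N) : G) = g * u * g⁻¹ := fun g u => MulAut.conjNormal_apply g u
  -- norms of `q`-elements vanish
  have hfix : ∀ (y : G) (u : N), y ^ q = 1 → y ≠ 1 → φ y u = u → u = 1 := by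
    intro y u hy hy1 hu
    refine Subtype.ext ((hnc (u : G) y (hNexp _ u.2) hy ?_).resolve_right hy1)
    have := congrArg Subtype.val hu
    rw [hφ, mul_inv_eq_iff_eq_mul] at this
    exact this.symm
  have hnormq : ∀ (y : G) (u : N), y ^ q = 1 → y ≠ 1 → ∏ i ∈ Finset.range q, φ (y ^ i) u = 1 := by
    intro y u hy hy1
    refine hfix y _ hy hy1 ?_
    rw [map_prod]
    have h1 := Finset.prod_range_succ' (fun i => φ (y ^ i) u) q
    rw [Finset.prod_range_succ, hy, pow_zero] at h1
    calc ∏ i ∈ Finset.range q, φ y (φ (y ^ i) u) = ∏ i ∈ Finset.range q, φ (y ^ (i + 1)) u :=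
          Finset.prod_congr rfl fun i _ => by rw [← MulAut.mul_apply, ← map_mul, ← pow_succ']
      _ = _ := (mul_right_cancel h1).symm
  have hnormQ : ∀ (Q : Subgroup G) [Fintype Q] (z : G), z ∈ Q → z ^ q = 1 → z ≠ 1 →
      ∀ u : N, ∏ x : Q, φ (x : G) u = 1 := by
    intro Q _ z hzQ hz hz1 u
    refine hfix z _ hz hz1 ?_
    rw [map_prod]
    refine Fintype.prod_equiv (Equiv.mulLeft ⟨z, hzQ⟩) _ _ fun x => ?_
    rw [← MulAut.mul_apply, ← map_mul]
    rfl
  obtain ⟨v, hv⟩ : ∃ v : N, v ≠ 1 := by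
    obtain ⟨v, hv, hv1⟩ := N.bot_or_exists_ne_one.resolve_left hN1
    exact ⟨⟨v, hv⟩, fun e => hv1 (congrArg Subtype.val e)⟩
  have hvl : v ^ l = 1 := Subtype.ext (hNexp _ v.2)
  have hvq : v ^ q ≠ 1 := fun e => hv (orderOf_eq_one_iff.mp (Nat.eq_one_of_dvd_coprimes hco
    (orderOf_dvd_of_pow_eq_one hvl) (orderOf_dvd_of_pow_eq_one e)))
  -- the Sylow subgroup of order `q`
  let Q : Sylow q G := default
  have hQq : ∀ y ∈ (Q : Subgroup G), y ^ q = 1 := by
    intro y hy
    refine (hord y).elim (fun h => ?_) id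
    obtain ⟨j, hj⟩ := Q.isPGroup' ⟨y, hy⟩
    have hj' : y ^ q ^ j = 1 := congrArg Subtype.val hj
    have : y = 1 := orderOf_eq_one_iff.mp (Nat.eq_one_of_dvd_coprimes (Nat.Coprime.pow_right j hco)
      (orderOf_dvd_of_pow_eq_one h) (orderOf_dvd_of_pow_eq_one hj'))
    rw [this, one_pow]
  have hQne : (Q : Subgroup G) ≠ ⊥ := Q.ne_bot_of_dvd_card hdq
  haveI : Nontrivial (Q : Subgroup G) := (Subgroup.nontrivial_iff_ne_bot _).2 hQne
  haveI := Q.isPGroup'.center_nontrivial
  obtain ⟨⟨⟨z, hzQ⟩, hzc⟩, hz1⟩ := exists_ne (1 : center (Q : Subgroup G))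
  have hz1' : z ≠ 1 := fun e => hz1 (Subtype.ext (Subtype.ext e))
  have hzq := hQq z hzQ
  have hzord : orderOf z = q := orderOf_eq_prime hzq hz1'
  have hQz : (Q : Subgroup G) = zpowers z := by
    refine le_antisymm (fun y hy => ?_) (zpowers_le.2 hzQ)
    by_contra hy'
    letI := Fintype.ofFinite (zpowers z)
    have hzy : Commute z y := (congrArg Subtype.val (mem_center_iff.mp hzc ⟨y, hy⟩)).symm
    have hcomm : ∀ k : zpowers z, Commute (k : G) y := fun k => by
      obtain ⟨j, hj⟩ := mem_zpowers_iff.mp k.2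
      rw [← hj]
      exact hzy.zpow_left j
    refine hvq ?_
    have h1 := pow_card_eq_one φ (zpowers z) v (hnormQ _ z (mem_zpowers z) hzq hz1') y hq.ne_zero
      (fun k => (k : G) * y) (fun k => hnormq _ _ (hQq _ ((Q : Subgroup G).mul_mem
        (zpowers_le.2 hzQ k.2) hy)) fun e => hy' (by
          rw [eq_inv_of_mul_eq_one_right e]; exact inv_mem k.2))
      (fun k i => by
        rw [(hcomm k).mul_pow, mul_inv_cancel_right]
        exact pow_mem k.2 i)
      (fun i hi0 hiq a b e => by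
        simp only [(hcomm _).mul_pow, mul_inv_cancel_right] at e
        refine Subtype.ext ?_
        have hco' : q.Coprime i := (Nat.Prime.coprime_iff_not_dvd hq).mpr fun hd =>
          absurd (Nat.le_of_dvd (Nat.pos_of_ne_zero hi0) hd) (not_le.2 hiq)
        have hab : Commute (a : G) (b : G)⁻¹ := by
          obtain ⟨j, hj⟩ := mem_zpowers_iff.mp a.2
          obtain ⟨j', hj'⟩ := mem_zpowers_iff.mp b.2
          rw [← hj, ← hj']
          exact ((Commute.refl z).zpow_zpow j j').inv_right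
        refine mul_inv_eq_one.mp (orderOf_eq_one_iff.mp (Nat.eq_one_of_dvd_coprimes hco'
          (orderOf_dvd_of_pow_eq_one ?_) (orderOf_dvd_of_pow_eq_one ?_)))
        · exact hQq _ (zpowers_le.2 hzQ (mul_mem a.2 (inv_mem b.2)))
        · rw [hab.mul_pow, e, inv_pow, mul_inv_cancel])
    rwa [← Nat.card_eq_fintype_card, Nat.card_zpowers, hzord] at h1
  -- no `l`-element normalizes it
  have hnorm : ∀ w : G, w ∈ normalizer ((Q : Subgroup G) : Set G) → w ^ l = 1 → w = 1 := by
    intro w hw hwl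
    by_contra hw1
    letI := Fintype.ofFinite (Q : Subgroup G)
    have hwN : w ∉ N := by
      intro hwN
      have h1 : w * z * w⁻¹ * z⁻¹ ∈ N := by
        rw [mul_assoc, mul_assoc, ← mul_assoc z]
        exact N.mul_mem hwN (hN.conj_mem _ (N.inv_mem hwN) z)
      have h2 : w * z * w⁻¹ * z⁻¹ ∈ (Q : Subgroup G) :=
        Subgroup.mul_mem _ ((mem_normalizer_iff.mp hw z).mp hzQ) (inv_mem hzQ)
      have h3 : w * z * w⁻¹ * z⁻¹ = 1 := orderOf_eq_one_iff.mp (Nat.eq_one_of_dvd_coprimes hco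
        (orderOf_dvd_of_pow_eq_one (hNexp _ h1)) (orderOf_dvd_of_pow_eq_one (hQq _ h2)))
      exact (hnc w z hwl hzq (by
        rwa [mul_inv_eq_one, mul_inv_eq_iff_eq_mul] at h3)).elim hw1 hz1'
    refine hvq ?_
    have h1 := pow_card_eq_one φ (Q : Subgroup G) v (hnormQ _ z hzQ hzq hz1') w hl.ne_zero
      (fun k => (k : G) * w * (k : G)⁻¹) (fun k => ?_)
      (fun k i => by
        rw [conj_pow, mul_assoc, mul_assoc, ← mul_assoc (w ^ i)]
        refine Subgroup.mul_mem _ k.2 ?_
        exact (mem_normalizer_iff.mp (pow_mem hw i) _).mp (inv_mem k.2))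
      (fun i hi0 hil a b e => by
        simp only [conj_pow] at e
        have e' : (b : G)⁻¹ * a * w ^ i = w ^ i * ((b : G)⁻¹ * a) := by
          have := mul_right_cancel e
          calc (b : G)⁻¹ * a * w ^ i = (b : G)⁻¹ * (a * w ^ i * (a : G)⁻¹) * a := by group
            _ = (b : G)⁻¹ * (b * w ^ i * (b : G)⁻¹) * a := by rw [this]
            _ = _ := by group
        have hwi : w ^ i ≠ 1 := by
          rw [Ne, ← orderOf_dvd_iff_pow_eq_one, orderOf_eq_prime hwl hw1]
          exact fun hd => absurd (Nat.le_of_dvd (Nat.pos_of_ne_zero hi0) hd) (not_le.2 hil)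
        refine Subtype.ext (inv_mul_eq_one.mp ((hnc (w ^ i) ((b : G)⁻¹ * a)
          (by rw [← pow_mul, mul_comm, pow_mul, hwl, one_pow])
          (hQq _ (Subgroup.mul_mem _ (inv_mem b.2) a.2)) e'.symm).resolve_left hwi)).symm)
    · rwa [← Nat.card_eq_fintype_card, hQz, Nat.card_zpowers, hzord] at h1
    · have hg1 : ((k : G) * w * (k : G)⁻¹) ^ l = 1 := by rw [conj_pow, hwl, mul_one, mul_inv_cancel]
      have h2 := mul_pow_eq N.subtype φ hφ v ((k : G) * w * (k : G)⁻¹) l
      rw [hg1, mul_one] at h2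
      refine Subtype.ext (h2.symm.trans ((hord _).resolve_right fun hh => ?_))
      have h3 : ((k : G) * w * (k : G)⁻¹) ^ q ∈ N := by
        have := mul_pow_eq N.subtype φ hφ v ((k : G) * w * (k : G)⁻¹) q
        rw [hh, eq_comm] at this
        rw [eq_inv_of_mul_eq_one_right this]
        exact inv_mem (SetLike.coe_mem _)
      rw [conj_pow] at h3
      have h4 : w ^ q ∈ N := by
        have := hN.conj_mem _ h3 (k : G)⁻¹
        simpa [mul_assoc] using this
      obtain ⟨j, hj⟩ : ∃ j, (w ^ q) ^ j = w :=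
        exists_pow_eq_self_of_coprime (by rw [orderOf_eq_prime hwl hw1]; exact hco.symm)
      exact hwN (hj ▸ pow_mem h4 j)
  have hcardQ : Nat.card (Q : Subgroup G) = q := by rw [hQz, Nat.card_zpowers, hzord]
  have hNQ : ∀ g : G, g ∈ normalizer ((Q : Subgroup G) : Set G) → g ∈ (Q : Subgroup G) := by
    intro g hg
    rcases hord g with h | h
    · rw [hnorm g hg h]; exact one_mem _
    have hgp : IsPGroup q (zpowers g) := by
      intro ⟨x, hx⟩
      obtain ⟨j, rfl⟩ := mem_zpowers_iff.mp hx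
      refine ⟨1, Subtype.ext ?_⟩
      show (g ^ j) ^ q ^ 1 = 1
      rw [pow_one, ← zpow_natCast, zpow_comm, zpow_natCast, h, one_zpow]
    have hsup : IsPGroup q ((zpowers g) ⊔ (Q : Subgroup G) : Subgroup G) :=
      hgp.to_sup_of_normal_right' Q.isPGroup' (zpowers_le.2 hg)
    rw [← Q.is_maximal' hsup le_sup_right]
    exact mem_sup_left (mem_zpowers g)
  refine ⟨(Q : Subgroup G), ⟨hQne, ?_, fun g hg => ?_⟩, by rw [hcardQ]; exact hq⟩
  · intro e
    rw [e, Subgroup.card_top] at hcardQ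
    exact hne ((Nat.prime_dvd_prime_iff_eq hl hq).mp (by rw [hcardQ] at hdp; exact hdp))
  · by_contra hne'
    refine hg (hNQ g (mem_normalizer_iff.mpr fun x => ?_))
    obtain ⟨x₀, hx₀, hx₁⟩ := (bot_or_exists_ne_one _).resolve_left hne'
    obtain ⟨hxQ, hxc⟩ := mem_inf.mp hx₀
    have hp1 : zpowers x₀ = (Q : Subgroup G) := by
      refine Subgroup.eq_of_le_of_card_ge (zpowers_le.2 hxQ) ?_
      rw [hcardQ, Nat.card_zpowers, orderOf_eq_prime (hQq _ hxQ) hx₁]
    have hp2 : zpowers x₀ = MulAut.conj g • (Q : Subgroup G) := by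
      refine Subgroup.eq_of_le_of_card_ge (zpowers_le.2 hxc) ?_
      rw [Nat.card_zpowers, orderOf_eq_prime (hQq _ hxQ) hx₁,
        ← Nat.card_congr (Subgroup.equivSMul (MulAut.conj g) (Q : Subgroup G)).toEquiv, hcardQ]
    have heq : MulAut.conj g • (Q : Subgroup G) = (Q : Subgroup G) := hp2.symm.trans hp1
    conv_rhs => rw [← heq]
    rw [mem_pointwise_smul_iff_inv_smul_mem, MulAut.smul_def, MulAut.inv_apply]
    simp [MulAut.conj_symm_apply, mul_assoc]

end Cfsg.Agent.FGS5.PrimeOrders
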