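import Cfsg.Agent.FGS2.FrobSolutions
import Cfsg.Agent.Core.BurnsidePQ
import Mathlib.GroupTheory.Perm.Cycle.Type

/-!
# Groups in which the numbers of elements of each order take three values

Only Frobenius' theorem and fixed points of elements of prime order are needed to show that such a
group has at most two prime divisors, or is a central extension of such a group by an involution.
-/

set_option autoImplicit false

namespace Cfsg.Agent.FGS5.ThreeCounts

universe u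

variable {G : Type u} [Group G] [Finite G]

/-- The number of elements of order `m`. -/
noncomputable def cnt (G : Type u) [Group G] (m : ℕ) : ℕ := Nat.card {g : G // orderOf g = m}

theorem cnt_eq_zero {m : ℕ} (h : ∀ g : G, orderOf g ≠ m) : cnt G m = 0 := by
  have : IsEmpty {g : G // orderOf g = m} := ⟨fun g => h g g.2⟩
  exact Nat.card_of_isEmpty

theorem exists_of_cnt_ne {m : ℕ} (h : cnt G m ≠ 0) : ∃ g : G, orderOf g = m := by
  by_contra hne
  push Not at hne
  exact h (cnt_eq_zero hne)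

theorem cnt_pos (g : G) : cnt G (orderOf g) ≠ 0 := by
  have : Nonempty {x : G // orderOf x = orderOf g} := ⟨⟨g, rfl⟩⟩
  exact Nat.card_pos.ne'

theorem cnt_one : cnt G 1 = 1 :=
  Nat.card_eq_one_iff_unique.mpr ⟨⟨fun a b =>
    Subtype.ext ((orderOf_eq_one_iff.mp a.2).trans (orderOf_eq_one_iff.mp b.2).symm)⟩,
    ⟨⟨1, orderOf_one⟩⟩⟩

theorem cnt_even {m : ℕ} (hm : 2 < m) : 2 ∣ cnt G m := by
  classical
  have := Fintype.ofFinite G
  have := Fact.mk Nat.prime_two
  by_contra hd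
  let σ : Equiv.Perm {g : G // orderOf g = m} :=
    { toFun := fun g => ⟨g.1⁻¹, (orderOf_inv g.1).trans g.2⟩
      invFun := fun g => ⟨g.1⁻¹, (orderOf_inv g.1).trans g.2⟩
      left_inv := fun g => Subtype.ext (inv_inv g.1)
      right_inv := fun g => Subtype.ext (inv_inv g.1) }
  have hσ : σ ^ 2 ^ 1 = 1 := Equiv.ext fun g => Subtype.ext (by
    show ((g.1)⁻¹)⁻¹ = g.1
    rw [inv_inv])
  obtain ⟨g, hg⟩ := Equiv.Perm.exists_fixed_point_of_prime (p := 2) (n := 1)
    (by rwa [cnt, Nat.card_eq_fintype_card] at hd) hσ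
  have h1 : g.1⁻¹ = g.1 := congrArg Subtype.val hg
  have h2 : g.1 ^ 2 = 1 := by rw [pow_two, ← inv_eq_iff_mul_eq_one.mp h1]
  have := Nat.le_of_dvd two_pos (g.2 ▸ orderOf_dvd_of_pow_eq_one h2)
  omega

/-- An element of prime order `p` commutes with an element of order `m` if `p ∤ cnt G m`. -/
theorem exists_commute {p m : ℕ} (hp : p.Prime) (h : ¬ p ∣ cnt G m) {x : G} (hx : orderOf x = p) :
    ∃ y : G, orderOf y = m ∧ Commute x y := by
  classical
  have := Fintype.ofFinite G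
  have := Fact.mk hp
  let e : G ≃* G := MulAut.conj x
  let σ : Equiv.Perm {g : G // orderOf g = m} :=
    Equiv.Perm.subtypePerm (e.toEquiv : Equiv.Perm G) fun g => by
      show orderOf (e g) = m ↔ orderOf g = m
      rw [MulEquiv.orderOf_eq]
  have hpow : ∀ (k : ℕ) (g : {g : G // orderOf g = m}), ((σ ^ k) g).1 = x ^ k * g.1 * (x ^ k)⁻¹ := by
    intro k
    induction k with
    | zero => intro g; simp
    | succ k ih =>
      intro g
      rw [pow_succ', Equiv.Perm.mul_apply, pow_succ']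
      show x * ((σ ^ k) g).1 * x⁻¹ = _
      rw [ih]
      group
  have hσ : σ ^ p ^ 1 = 1 := Equiv.ext fun g => Subtype.ext (by
    rw [pow_one, hpow, ← hx, pow_orderOf_eq_one]
    simp)
  obtain ⟨g, hg⟩ := Equiv.Perm.exists_fixed_point_of_prime (p := p) (n := 1)
    (by rwa [cnt, Nat.card_eq_fintype_card] at h) hσ
  exact ⟨g.1, g.2, mul_inv_eq_iff_eq_mul.mp (congrArg Subtype.val hg : x * g.1 * x⁻¹ = g.1)⟩

theorem two_mul_cnt_le {p m : ℕ} (hp : p.Prime) (hm : 2 < m) (hco : p.Coprime m)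
    (h : ¬ p ∣ cnt G m) : 2 * cnt G p ≤ cnt G (p * m) := by
  classical
  choose y hy hc using fun x : {g : G // orderOf g = p} => exists_commute hp h x.2
  let z : {g : G // orderOf g = p} × Bool → G := fun t => if t.2 then y t.1 else (y t.1)⁻¹
  have hz : ∀ t, orderOf (z t) = m ∧ Commute t.1.1 (z t) := fun t => by
    show orderOf (if t.2 then y t.1 else (y t.1)⁻¹) = m ∧ _
    rcases t with ⟨x, _ | _⟩
    · exact ⟨(orderOf_inv _).trans (hy x), (hc x).inv_right⟩
    · exact ⟨hy x, hc x⟩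
  let f : {g : G // orderOf g = p} × Bool → {g : G // orderOf g = p * m} := fun t =>
    ⟨t.1.1 * z t, by
      rw [(hz t).2.orderOf_mul_eq_mul_orderOf_of_coprime (by rw [t.1.2, (hz t).1]; exact hco),
        t.1.2, (hz t).1]⟩
  have hf : Function.Injective f := by
    intro s t e
    have e' : s.1.1 * z s = t.1.1 * z t := congrArg Subtype.val e
    have h1 : ∀ u, (u.1.1 * z u) ^ m = u.1.1 ^ m := fun u => by
      rw [(hz u).2.mul_pow, ← (hz u).1, pow_orderOf_eq_one, mul_one]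
    have h2 : s.1.1 ^ m = t.1.1 ^ m := by rw [← h1 s, e', h1 t]
    have key : ∀ u : {g : G // orderOf g = p}, u.1 = (u.1 ^ m) ^ Nat.gcdB p m := fun u => by
      have hup : u.1 ^ p = 1 := orderOf_dvd_iff_pow_eq_one.mp u.2.dvd
      have h := Nat.gcd_eq_gcd_ab p m
      rw [hco.gcd_eq_one] at h
      calc u.1 = u.1 ^ ((1 : ℕ) : ℤ) := by simp
        _ = (u.1 ^ m) ^ Nat.gcdB p m := by
          rw [h, zpow_add, zpow_mul, zpow_natCast, hup, one_zpow, one_mul, zpow_mul, zpow_natCast]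
    have h3 : s.1 = t.1 := Subtype.ext (by rw [key s.1, h2, ← key t.1])
    rcases s with ⟨x, i⟩
    rcases t with ⟨x', j⟩
    simp only at h3
    subst h3
    have h4 : z (x, i) = z (x, j) := mul_left_cancel e'
    have hne : y x ≠ (y x)⁻¹ := fun e => by
      have h2 : y x ^ 2 = 1 := by rw [pow_two, ← inv_eq_iff_mul_eq_one.mp e.symm]
      have := Nat.le_of_dvd two_pos (hy x ▸ orderOf_dvd_of_pow_eq_one h2)
      omega
    revert h4
    cases i <;> cases j <;> simp [z, hne, hne.symm]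
  have := Nat.card_le_card_of_injective f hf
  rw [Nat.card_prod, Nat.card_eq_fintype_card (α := Bool), Fintype.card_bool] at this
  rw [cnt, cnt]
  omega

/-- The mirror statement. -/
theorem dvd_cnt {p m : ℕ} (hp : p.Prime) (hm : 2 < m) (hco : p.Coprime m) (hd : p ∣ Nat.card G)
    (h0 : cnt G (p * m) = 0) : p ∣ cnt G m := by
  by_contra h
  have := Fact.mk hp
  obtain ⟨x, hx⟩ := exists_prime_orderOf_dvd_card' p hd
  have h1 := two_mul_cnt_le hp hm hco h
  have h2 := cnt_pos x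
  rw [hx] at h2
  omega

theorem dvd_sum_cnt {d : ℕ} (hd : d ∣ Nat.card G) : d ∣ ∑ m ∈ d.divisors, cnt G m := by
  classical
  have := Fintype.ofFinite G
  have h1 := FGS2.frobenius_solutions (Nat.card G) rfl d hd
  have h0 : d ≠ 0 := ne_zero_of_dvd_ne_zero Nat.card_pos.ne' hd
  simp only [cnt, Nat.card_eq_fintype_card, Fintype.card_subtype] at h1 ⊢
  rwa [sum_card_orderOf_eq_card_pow_eq_one h0]

theorem sum_cnt_le (s : Finset ℕ) : ∑ m ∈ s, cnt G m ≤ Nat.card G := by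
  classical
  have := Fintype.ofFinite G
  simp only [cnt, Nat.card_eq_fintype_card, Fintype.card_subtype]
  rw [← Finset.card_biUnion]
  · exact Finset.card_le_univ _
  · intro i _ j _ hij
    rw [Function.onFun, Finset.disjoint_left]
    intro g hg hg'
    simp only [Finset.mem_filter, Finset.mem_univ, true_and] at hg hg'
    exact hij (hg.symm.trans hg')

theorem sum_divisors_prime_mul {p n : ℕ} (hp : p.Prime) (hn : ¬ p ∣ n) (f : ℕ → ℕ) :
    ∑ m ∈ (p * n).divisors, f m = ∑ m ∈ n.divisors, f m + ∑ m ∈ n.divisors, f (p * m) := by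
  classical
  have hn0 : n ≠ 0 := fun e => hn (e ▸ dvd_zero p)
  have hd : (p * n).divisors = n.divisors ∪ n.divisors.image (p * ·) := by
    ext m
    simp only [Nat.mem_divisors, Finset.mem_union, Finset.mem_image]
    constructor
    · rintro ⟨hm, -⟩
      obtain ⟨y, z, hy, hz, rfl⟩ := Nat.dvd_mul.mp hm
      rcases (Nat.dvd_prime hp).mp hy with rfl | rfl
      · exact Or.inl ⟨by rwa [one_mul], hn0⟩
      · exact Or.inr ⟨z, ⟨hz, hn0⟩, rfl⟩
    · refine fun hm => ⟨?_, mul_ne_zero hp.ne_zero hn0⟩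
      rcases hm with ⟨hm, -⟩ | ⟨z, ⟨hz, -⟩, rfl⟩
      · exact hm.mul_left p
      · exact mul_dvd_mul_left p hz
  rw [hd, Finset.sum_union, Finset.sum_image (fun a _ b _ e => Nat.eq_of_mul_eq_mul_left hp.pos e)]
  rw [Finset.disjoint_left]
  intro m hm hm'
  obtain ⟨z, -, rfl⟩ := Finset.mem_image.mp hm'
  exact hn ((dvd_mul_right p z).trans (Nat.dvd_of_mem_divisors hm))

theorem frob_prime {p : ℕ} (hp : p.Prime) (hd : p ∣ Nat.card G) : p ∣ 1 + cnt G p := by
  have h := dvd_sum_cnt (G := G) hd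
  rwa [hp.divisors, Finset.sum_pair hp.one_lt.ne, cnt_one] at h

theorem frob_pair {p q : ℕ} (hp : p.Prime) (hq : q.Prime) (hne : p ≠ q) (hdp : p ∣ Nat.card G)
    (hdq : q ∣ Nat.card G) : p * q ∣ 1 + cnt G q + (cnt G p + cnt G (p * q)) := by
  have hco : p.Coprime q := (Nat.coprime_primes hp hq).mpr hne
  have h := dvd_sum_cnt (G := G) (hco.mul_dvd_of_dvd_of_dvd hdp hdq)
  rw [sum_divisors_prime_mul hp (fun e => hne ((Nat.prime_dvd_prime_iff_eq hp hq).mp e)),
    hq.divisors, Finset.sum_pair hq.one_lt.ne, Finset.sum_pair hq.one_lt.ne, cnt_one, mul_one] at h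
  exact h

/-- All the numbers, except possibly those for the orders `1` and `2`, are `a` or `b`. -/
def Vals (G : Type u) [Group G] (a b : ℕ) : Prop :=
  ∀ m, 2 < m → cnt G m = 0 ∨ cnt G m = a ∨ cnt G m = b

theorem Vals.symm {a b : ℕ} (h : Vals G a b) : Vals G b a := fun m hm => by
  rcases h m hm with e | e | e
  · exact Or.inl e
  · exact Or.inr (Or.inr e)
  · exact Or.inr (Or.inl e)

theorem not_dvd_of_frob {p : ℕ} (hp : p.Prime) (hd : p ∣ Nat.card G) : ¬ p ∣ cnt G p := fun h =>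
  hp.not_dvd_one ((Nat.dvd_add_left h).mp (frob_prime hp hd))

theorem two_lt_of_prime {p : ℕ} (hp : p.Prime) (h : p ≠ 2) : 2 < p := by
  have := hp.two_le; omega

theorem cnt_of_dvd {a b : ℕ} (hv : Vals G a b) {p : ℕ} (hp : p.Prime) (h2 : p ≠ 2)
    (hd : p ∣ Nat.card G) : cnt G p = a ∨ cnt G p = b := by
  have := Fact.mk hp
  obtain ⟨x, hx⟩ := exists_prime_orderOf_dvd_card' p hd
  exact (hv p (two_lt_of_prime hp h2)).resolve_left (hx ▸ cnt_pos x)

/-- Two odd primes with the same number. -/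
theorem pair {a b : ℕ} (hv : Vals G a b) {p q : ℕ} (hp : p.Prime) (hq : q.Prime) (hp2 : p ≠ 2)
    (hq2 : q ≠ 2) (hne : p ≠ q) (hdp : p ∣ Nat.card G) (hdq : q ∣ Nat.card G)
    (hca : cnt G p = a) (hcb : cnt G q = a) :
    cnt G (p * q) = b ∧ 2 * a ≤ b ∧ ¬ p ∣ b ∧ a ≠ 0 := by
  have := Fact.mk hp
  obtain ⟨x, hx⟩ := exists_prime_orderOf_dvd_card' p hdp
  have ha0 : a ≠ 0 := hca ▸ hx ▸ cnt_pos x
  have hpa : ¬ p ∣ a := hca ▸ not_dvd_of_frob hp hdp
  have h1 := two_mul_cnt_le (G := G) hp (two_lt_of_prime hq hq2)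
    ((Nat.coprime_primes hp hq).mpr hne) (by rw [hcb]; exact hpa)
  rw [hca] at h1
  have h2 : 2 < p * q := by nlinarith [hp.two_le, hq.two_le]
  have hb : cnt G (p * q) = b := by
    rcases hv (p * q) h2 with e | e | e
    · omega
    · omega
    · exact e
  refine ⟨hb, hb ▸ h1, fun hpb => ?_, ha0⟩
  have h3 := (dvd_mul_right p q).trans (frob_pair hp hq hne hdp hdq)
  rw [hca, hcb, hb] at h3
  have h4 : p ∣ 1 + a := hca ▸ frob_prime hp hdp
  exact hpa ((Nat.dvd_add_left hpb).mp ((Nat.dvd_add_right h4).mp h3))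

theorem all_share {a b : ℕ} (hv : Vals G a b) {p q : ℕ} (hp : p.Prime) (hq : q.Prime) (hp2 : p ≠ 2)
    (hq2 : q ≠ 2) (hne : p ≠ q) (hdp : p ∣ Nat.card G) (hdq : q ∣ Nat.card G)
    (hca : cnt G p = a) (hcb : cnt G q = a) :
    ∀ r, r.Prime → r ≠ 2 → r ∣ Nat.card G → cnt G r = a := by
  intro r hr hr2 hdr
  refine (cnt_of_dvd hv hr hr2 hdr).resolve_right fun hrb => ?_
  obtain ⟨-, h2a, hpb, ha0⟩ := pair hv hp hq hp2 hq2 hne hdp hdq hca hcb
  have hrp : p ≠ r := fun e => by rw [← e] at hrb; omega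
  have h1 := two_mul_cnt_le (G := G) hp (two_lt_of_prime hr hr2)
    ((Nat.coprime_primes hp hr).mpr hrp) (by rw [hrb]; exact hpb)
  rw [hca] at h1
  have hpr : cnt G (p * r) = b := by
    rcases hv (p * r) (by nlinarith [hp.two_le, hr.two_le]) with e | e | e <;> omega
  have h3 := (dvd_mul_right p r).trans (frob_pair hp hr hrp hdp hdr)
  rw [hca, hrb, hpr] at h3
  have h4 : p ∣ 1 + a := hca ▸ frob_prime hp hdp
  have h5 : p ∣ 2 * b := by
    refine (Nat.dvd_add_right h4).mp ?_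
    rwa [show 1 + a + 2 * b = 1 + b + (a + b) by ring]
  rcases hp.dvd_mul.mp h5 with h | h
  · exact hp2 ((Nat.prime_dvd_prime_iff_eq hp Nat.prime_two).mp h)
  · exact hpb h

/-- Two odd primes with different numbers. -/
theorem pair_ne {a b : ℕ} (hv : Vals G a b) {p q : ℕ} (hp : p.Prime) (hq : q.Prime) (hp2 : p ≠ 2)
    (hq2 : q ≠ 2) (hne : p ≠ q) (hdp : p ∣ Nat.card G) (hdq : q ∣ Nat.card G)
    (hca : cnt G p = a) (hcb : cnt G q = b) : cnt G (p * q) = 0 ∧ p ∣ b ∧ q ∣ a := by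
  suffices key : ∀ {a b : ℕ}, Vals G a b → ∀ {p q : ℕ}, p.Prime → q.Prime → p ≠ 2 → q ≠ 2 → p ≠ q →
      p ∣ Nat.card G → q ∣ Nat.card G → cnt G p = a → cnt G q = b → cnt G (p * q) ≠ a by
    have h0 : cnt G (p * q) = 0 := by
      rcases hv (p * q) (by nlinarith [hp.two_le, hq.two_le]) with e | e | e
      · exact e
      · exact absurd e (key hv hp hq hp2 hq2 hne hdp hdq hca hcb)
      · exact absurd (by rwa [mul_comm]) (key hv.symm hq hp hq2 hp2 hne.symm hdq hdp hcb hca)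
    refine ⟨h0, ?_, ?_⟩
    · rw [← hcb]
      exact dvd_cnt hp (two_lt_of_prime hq hq2) ((Nat.coprime_primes hp hq).mpr hne) hdp h0
    · rw [← hca]
      exact dvd_cnt hq (two_lt_of_prime hp hp2) ((Nat.coprime_primes hq hp).mpr hne.symm) hdq
        (by rwa [mul_comm])
  intro a b hv p q hp hq hp2 hq2 hne hdp hdq hca hcb hv'
  have := Fact.mk hp
  obtain ⟨x, hx⟩ := exists_prime_orderOf_dvd_card' p hdp
  have ha0 : a ≠ 0 := hca ▸ hx ▸ cnt_pos x
  have hpa : ¬ p ∣ a := hca ▸ not_dvd_of_frob hp hdp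
  have h4 : p ∣ 1 + a := hca ▸ frob_prime hp hdp
  have hpb : ¬ p ∣ b := fun hd => by
    have h3 := (dvd_mul_right p q).trans (frob_pair hp hq hne hdp hdq)
    rw [hca, hcb, hv'] at h3
    refine hpa ((Nat.dvd_add_left hd).mp ((Nat.dvd_add_right h4).mp ?_))
    rwa [show 1 + a + (a + b) = 1 + b + (a + a) by ring]
  have h1 := two_mul_cnt_le (G := G) hp (two_lt_of_prime hq hq2)
    ((Nat.coprime_primes hp hq).mpr hne) (by rw [hcb]; exact hpb)
  omega

/-- No element has order the square of an odd prime, if another prime has the same number. -/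
theorem no_sq_share {a b : ℕ} (hv : Vals G a b) {p q : ℕ} (hp : p.Prime) (hq : q.Prime) (hp2 : p ≠ 2)
    (hq2 : q ≠ 2) (hne : p ≠ q) (hdp : p ∣ Nat.card G) (hdq : q ∣ Nat.card G)
    (hca : cnt G p = a) (hcb : cnt G q = a) (g : G) : orderOf g ≠ p ^ 2 := by
  intro hg
  obtain ⟨-, -, hpb, -⟩ := pair hv hp hq hp2 hq2 hne hdp hdq hca hcb
  have h := dvd_sum_cnt (G := G) (hg ▸ orderOf_dvd_natCard g)
  rw [Nat.sum_divisors_prime_pow hp, Finset.sum_range_succ, Finset.sum_range_succ,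
    Finset.sum_range_succ, Finset.sum_range_zero, pow_zero, pow_one, cnt_one, zero_add, hca] at h
  have h4 : p ∣ 1 + a := hca ▸ frob_prime hp hdp
  have h5 : p ∣ cnt G (p ^ 2) := (Nat.dvd_add_right h4).mp ((dvd_pow_self p two_ne_zero).trans h)
  have h6 := (hv (p ^ 2) (by nlinarith [hp.two_le])).resolve_left (hg ▸ cnt_pos g)
  rcases h6 with e | e <;> rw [e] at h5
  · exact (hca ▸ not_dvd_of_frob hp hdp : ¬ p ∣ a) h5
  · exact hpb h5

/-- If all odd primes share their number, the odd part of the order is small. -/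
theorem le_of_share {a b : ℕ} (hv : Vals G a b) {p q : ℕ} (hp : p.Prime) (hq : q.Prime) (hp2 : p ≠ 2)
    (hq2 : q ≠ 2) (hne : p ≠ q) (hdp : p ∣ Nat.card G) (hdq : q ∣ Nat.card G)
    (hca : cnt G p = a) (hcb : cnt G q = a) {n : ℕ} (hn : n ∣ Nat.card G) (hodd : ¬ 2 ∣ n) :
    n ≤ 1 + a := by
  refine Nat.le_of_dvd (by omega) ((Nat.dvd_iff_prime_pow_dvd_dvd _ _).mpr fun r k hr hk => ?_)
  rcases k with _ | k
  · simp
  have hdr : r ∣ n := (dvd_pow_self r k.succ_ne_zero).trans hk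
  have hr2 : r ≠ 2 := fun e => hodd (e ▸ hdr)
  have hra := all_share hv hp hq hp2 hq2 hne hdp hdq hca hcb r hr hr2 (hdr.trans hn)
  obtain ⟨s, hs, hs2, hsr, hds, hcs⟩ : ∃ s, s.Prime ∧ s ≠ 2 ∧ r ≠ s ∧ s ∣ Nat.card G ∧ cnt G s = a := by
    by_cases e : r = p
    · exact ⟨q, hq, hq2, e ▸ hne, hdq, hcb⟩
    · exact ⟨p, hp, hp2, e, hdp, hca⟩
  have h := dvd_sum_cnt (G := G) (hk.trans hn)
  rw [Nat.sum_divisors_prime_pow hr, Finset.sum_range_succ', Finset.sum_range_succ',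
    Finset.sum_eq_zero (s := Finset.range k) (fun i _ => cnt_eq_zero fun g hg => ?_), pow_zero,
    pow_one, cnt_one, hra, zero_add] at h
  · rwa [add_comm 1 a]
  · refine no_sq_share hv hr hs hr2 hs2 hsr (hdr.trans hn) hds hra hcs
      (g ^ (orderOf g / r ^ 2)) (orderOf_pow_orderOf_div (orderOf_pos g).ne' ?_)
    rw [hg]
    exact pow_dvd_pow r (by omega)

/-- In odd order the primes have different numbers. -/
theorem not_share_odd {a b : ℕ} (hv : Vals G a b) (hG : ¬ 2 ∣ Nat.card G) {p q : ℕ} (hp : p.Prime)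
    (hq : q.Prime) (hne : p ≠ q) (hdp : p ∣ Nat.card G) (hdq : q ∣ Nat.card G)
    (hca : cnt G p = a) (hcb : cnt G q = a) : False := by
  have hp2 : p ≠ 2 := fun e => hG (e ▸ hdp)
  have hq2 : q ≠ 2 := fun e => hG (e ▸ hdq)
  obtain ⟨-, -, -, ha0⟩ := pair hv hp hq hp2 hq2 hne hdp hdq hca hcb
  have h1 := le_of_share hv hp hq hp2 hq2 hne hdp hdq hca hcb dvd_rfl hG
  have h2 := sum_cnt_le (G := G) {1, p, q}
  rw [Finset.sum_insert (by simp [hp.one_lt.ne, hq.one_lt.ne]), Finset.sum_pair hne, cnt_one, hca,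
    hcb] at h2
  omega

theorem card_primeFactors_odd {a b : ℕ} (hv : Vals G a b) (hG : ¬ 2 ∣ Nat.card G) :
    (Nat.card G).primeFactors.card ≤ 2 := by
  by_contra h
  obtain ⟨p, q, r, hp, hq, hr, hpq, hpr, hqr⟩ := Finset.two_lt_card_iff.mp (not_le.mp h)
  rw [Nat.mem_primeFactors] at hp hq hr
  have hval : ∀ s, s.Prime ∧ s ∣ Nat.card G ∧ Nat.card G ≠ 0 → cnt G s = a ∨ cnt G s = b :=
    fun s hs => cnt_of_dvd hv hs.1 (fun e => hG (e ▸ hs.2.1)) hs.2.1
  rcases hval p hp with e1 | e1 <;> rcases hval q hq with e2 | e2 <;> rcases hval r hr with e3 | e3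
  all_goals first
    | exact not_share_odd hv hG hp.1 hq.1 hpq hp.2.1 hq.2.1 e1 e2
    | exact not_share_odd hv hG hp.1 hr.1 hpr hp.2.1 hr.2.1 e1 e3
    | exact not_share_odd hv hG hq.1 hr.1 hqr hq.2.1 hr.2.1 e2 e3
    | exact not_share_odd hv.symm hG hp.1 hq.1 hpq hp.2.1 hq.2.1 e1 e2
    | exact not_share_odd hv.symm hG hp.1 hr.1 hpr hp.2.1 hr.2.1 e1 e3
    | exact not_share_odd hv.symm hG hq.1 hr.1 hqr hq.2.1 hr.2.1 e2 e3

section Even

variable (z : G) (hz : orderOf z = 2) (huniq : ∀ x : G, orderOf x = 2 → x = z)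

include hz huniq

theorem central (g : G) : Commute z g :=
  (mul_inv_eq_iff_eq_mul.mp (huniq (g * z * g⁻¹) ((MulEquiv.orderOf_eq (MulAut.conj g) z).trans hz))).symm

theorem cnt_two : cnt G 2 = 1 :=
  Nat.card_eq_one_iff_unique.mpr
    ⟨⟨fun a b => Subtype.ext ((huniq _ a.2).trans (huniq _ b.2).symm)⟩, ⟨⟨z, hz⟩⟩⟩

theorem cnt_two_mul {m : ℕ} (hm : ¬ 2 ∣ m) : cnt G (2 * m) = cnt G m := by
  have hco : (2 : ℕ).Coprime m := Nat.prime_two.coprime_iff_not_dvd.mpr hm
  refine (Nat.card_congr (Equiv.ofBijective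
    (fun g : {g : G // orderOf g = m} => (⟨z * g.1, ?_⟩ : {g : G // orderOf g = 2 * m})) ⟨?_, ?_⟩)).symm
  · rw [(central z hz huniq g.1).orderOf_mul_eq_mul_orderOf_of_coprime (by rw [hz, g.2]; exact hco),
      hz, g.2]
  · exact fun g h e => Subtype.ext (mul_left_cancel (congrArg Subtype.val e))
  · rintro ⟨w, hw⟩
    have h1 : w ^ m = z := huniq _ (by
      have := orderOf_pow_orderOf_div (orderOf_pos w).ne' (hw.symm ▸ dvd_mul_right 2 m : 2 ∣ orderOf w)
      rwa [hw, Nat.mul_div_cancel_left _ two_pos] at this)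
    have hz2 : z * z = 1 := by rw [← pow_two, ← hz, pow_orderOf_eq_one]
    have h2 : (z * w) ^ m = 1 := by
      obtain ⟨k, hk⟩ : Odd m := Nat.odd_iff.mpr (Nat.two_dvd_ne_zero.mp hm)
      rw [(central z hz huniq w).mul_pow, h1, ← pow_succ, hk]
      rw [show 2 * k + 1 + 1 = 2 * (k + 1) by ring, pow_mul, pow_two, hz2, one_pow]
    refine ⟨⟨z * w, ?_⟩, Subtype.ext (by show z * (z * w) = w; rw [← mul_assoc, hz2, one_mul])⟩
    refine Nat.dvd_antisymm (orderOf_dvd_of_pow_eq_one h2) (Nat.Coprime.dvd_of_dvd_mul_left hco.symm ?_)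
    refine (dvd_mul_left m 2).trans ?_
    rw [← hw]
    refine orderOf_dvd_of_pow_eq_one ?_
    have hw' : w = z * (z * w) := by rw [← mul_assoc, hz2, one_mul]
    rw [show w ^ (2 * orderOf (z * w)) = (z * (z * w)) ^ (2 * orderOf (z * w)) from
      congrArg (· ^ (2 * orderOf (z * w))) hw']
    rw [((Commute.refl z).mul_right (central z hz huniq w)).mul_pow, pow_mul, pow_mul', pow_two, hz2,
      one_pow, pow_orderOf_eq_one, one_pow, one_mul]

theorem frob_four_mul {p n : ℕ} (hp : p.Prime) (hp2 : p ≠ 2) (hd : 4 * p ∣ n) (hn : n ∣ Nat.card G) :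
    p ∣ 2 + cnt G 4 + (2 * cnt G p + cnt G (4 * p)) := by
  have h := (dvd_mul_right p 4).trans (dvd_sum_cnt (G := G) ((mul_comm 4 p ▸ hd).trans hn))
  have h4 : ¬ p ∣ 4 := fun e => hp2 ((Nat.prime_dvd_prime_iff_eq hp Nat.prime_two).mp
    (hp.dvd_of_dvd_pow (show p ∣ 2 ^ 2 from e)))
  have hodd : ¬ 2 ∣ p := fun e => hp2 ((Nat.prime_dvd_prime_iff_eq Nat.prime_two hp).mp e).symm
  rw [sum_divisors_prime_mul hp h4, show (4 : ℕ).divisors = {1, 2, 4} by decide,
    Finset.sum_insert (by decide), Finset.sum_pair (by decide), Finset.sum_insert (by decide),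
    Finset.sum_pair (by decide), cnt_one, cnt_two z hz huniq, mul_one, mul_comm p 2,
    cnt_two_mul z hz huniq hodd, mul_comm p 4] at h
  rwa [show 2 + cnt G 4 + (2 * cnt G p + cnt G (4 * p)) =
    1 + (1 + cnt G 4) + (cnt G p + (cnt G p + cnt G (4 * p))) by ring]

theorem four_coprime {p : ℕ} (hp : p.Prime) (hp2 : p ≠ 2) : p.Coprime 4 :=
  Nat.Coprime.pow_right 2 ((Nat.coprime_primes hp Nat.prime_two).mpr hp2)

/-- An element of order four excludes two odd primes with the same number. -/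
theorem not_share_four {a b : ℕ} (hv : Vals G a b) {p q : ℕ} (hp : p.Prime) (hq : q.Prime)
    (hp2 : p ≠ 2) (hq2 : q ≠ 2) (hne : p ≠ q) (hdp : p ∣ Nat.card G) (hdq : q ∣ Nat.card G)
    (hca : cnt G p = a) (hcb : cnt G q = a) (u : G) (hu : orderOf u = 4) : False := by
  obtain ⟨hpq, h2a, hpb, ha0⟩ := pair hv hp hq hp2 hq2 hne hdp hdq hca hcb
  obtain ⟨-, -, hqb, -⟩ := pair hv hq hp hq2 hp2 hne.symm hdq hdp hcb hca
  have hpa : ¬ p ∣ a := hca ▸ not_dvd_of_frob hp hdp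
  have hqa : ¬ q ∣ a := hcb ▸ not_dvd_of_frob hq hdq
  have h4 : cnt G 4 = a ∨ cnt G 4 = b := (hv 4 (by norm_num)).resolve_left (hu ▸ cnt_pos u)
  have h4d : 4 ∣ Nat.card G := hu ▸ orderOf_dvd_natCard u
  have hstep : ∀ r, r.Prime → r ≠ 2 → r ∣ Nat.card G → cnt G r = a → ¬ r ∣ a → ¬ r ∣ b →
      cnt G 4 = a ∧ cnt G (4 * r) = b ∧ r ∣ a + b := by
    intro r hr hr2 hdr hra hr1 hr3
    have h1 := two_mul_cnt_le (G := G) hr (by norm_num : 2 < 4) (four_coprime z hz huniq hr hr2)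
      (by rcases h4 with e | e <;> rw [e] <;> assumption)
    rw [hra, mul_comm r 4] at h1
    have h2 : cnt G (4 * r) = b := by
      rcases hv (4 * r) (by have := hr.two_le; omega) with e | e | e <;> omega
    have hdd : 4 * r ∣ Nat.card G :=
      (four_coprime z hz huniq hr hr2).symm.mul_dvd_of_dvd_of_dvd h4d hdr
    have h3 := frob_four_mul z hz huniq hr hr2 dvd_rfl hdd
    rw [hra, h2] at h3
    have h5 : r ∣ 2 * (1 + a) := (hra ▸ frob_prime hr hdr : r ∣ 1 + a).mul_left 2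
    have h6 : r ∣ cnt G 4 + b := by
      refine (Nat.dvd_add_right h5).mp ?_
      rwa [show 2 * (1 + a) + (cnt G 4 + b) = 2 + cnt G 4 + (2 * a + b) by ring]
    rcases h4 with e | e
    · exact ⟨e, h2, e ▸ h6⟩
    · rw [e, ← two_mul] at h6
      rcases hr.dvd_mul.mp h6 with h | h
      · exact absurd ((Nat.prime_dvd_prime_iff_eq hr Nat.prime_two).mp h) hr2
      · exact absurd h hr3
  obtain ⟨h4a, h4p, hab⟩ := hstep p hp hp2 hdp hca hpa hpb
  obtain ⟨-, h4q, -⟩ := hstep q hq hq2 hdq hcb hqa hqb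
  have hco4 : q.Coprime (4 * p) :=
    Nat.Coprime.mul_right (four_coprime z hz huniq hq hq2) ((Nat.coprime_primes hq hp).mpr hne.symm)
  have h1 := two_mul_cnt_le (G := G) hq (by have := hp.two_le; omega : 2 < 4 * p) hco4
    (by rw [h4p]; exact hqb)
  rw [hcb] at h1
  have hm : p * (4 * q) = q * (4 * p) := by ring
  have h7 : cnt G (p * (4 * q)) = b := by
    rw [hm]
    rcases hv (q * (4 * p)) (by nlinarith [hq.two_le, hp.two_le]) with e | e | e <;> omega
  have hnp : ¬ p ∣ 4 * q := (Nat.Prime.coprime_iff_not_dvd hp).mp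
    (Nat.Coprime.mul_right (four_coprime z hz huniq hp hp2) ((Nat.coprime_primes hp hq).mpr hne))
  have hdd : p * (4 * q) ∣ Nat.card G :=
    ((Nat.Prime.coprime_iff_not_dvd hp).mpr hnp).mul_dvd_of_dvd_of_dvd hdp
      ((four_coprime z hz huniq hq hq2).symm.mul_dvd_of_dvd_of_dvd h4d hdq)
  have h := (dvd_mul_right p (4 * q)).trans (dvd_sum_cnt (G := G) hdd)
  have hn4 : ¬ q ∣ 4 := (Nat.Prime.coprime_iff_not_dvd hq).mp (four_coprime z hz huniq hq hq2)
  have hoddp : ¬ 2 ∣ p := fun e => hp2 ((Nat.prime_dvd_prime_iff_eq Nat.prime_two hp).mp e).symm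
  have hoddq : ¬ 2 ∣ q := fun e => hq2 ((Nat.prime_dvd_prime_iff_eq Nat.prime_two hq).mp e).symm
  have hoddpq : ¬ 2 ∣ p * q := fun e => (Nat.prime_two.dvd_mul.mp e).elim hoddp hoddq
  rw [sum_divisors_prime_mul hp hnp, mul_comm 4 q, sum_divisors_prime_mul hq hn4,
    sum_divisors_prime_mul hq hn4, show (4 : ℕ).divisors = {1, 2, 4} by decide] at h
  simp only [Finset.sum_insert (show (1 : ℕ) ∉ ({2, 4} : Finset ℕ) by decide),
    Finset.sum_pair (show (2 : ℕ) ≠ 4 by decide), mul_one, cnt_one, cnt_two z hz huniq] at h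
  rw [mul_comm q 2, cnt_two_mul z hz huniq hoddq, mul_comm q 4, h4q, h4a, hcb,
    mul_comm p 2, cnt_two_mul z hz huniq hoddp, mul_comm p 4, h4p, hca,
    hpq, show p * (2 * q) = 2 * (p * q) by ring, cnt_two_mul z hz huniq hoddpq, hpq, h7] at h
  have h8 : p ∣ 5 * (a + b) := hab.mul_left 5
  have h9 : p ∣ 5 * (a + b) + 2 := by
    rw [show 5 * (a + b) + 2 =
      1 + (1 + a) + (a + (a + b)) + (a + (a + b) + (b + (b + b))) by ring]
    exact h
  exact hp2 ((Nat.prime_dvd_prime_iff_eq hp Nat.prime_two).mp ((Nat.dvd_add_right h8).mp h9))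

/-- An element of order four excludes two odd primes with different numbers. -/
theorem not_ne_four {a b : ℕ} (hv : Vals G a b) {p q : ℕ} (hp : p.Prime) (hq : q.Prime)
    (hp2 : p ≠ 2) (hq2 : q ≠ 2) (hne : p ≠ q) (hdp : p ∣ Nat.card G) (hdq : q ∣ Nat.card G)
    (hca : cnt G p = a) (hcb : cnt G q = b) (h4 : cnt G 4 = a) (u : G) (hu : orderOf u = 4) :
    False := by
  obtain ⟨-, hpb, -⟩ := pair_ne hv hp hq hp2 hq2 hne hdp hdq hca hcb
  have hpa : ¬ p ∣ a := hca ▸ not_dvd_of_frob hp hdp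
  have h1 := two_mul_cnt_le (G := G) hp (by norm_num : 2 < 4) (four_coprime z hz huniq hp hp2)
    (by rw [h4]; exact hpa)
  rw [hca, mul_comm p 4] at h1
  have := Fact.mk hp
  obtain ⟨x, hx⟩ := exists_prime_orderOf_dvd_card' p hdp
  have ha0 : a ≠ 0 := hca ▸ hx ▸ cnt_pos x
  have h2 : cnt G (4 * p) = b := by
    rcases hv (4 * p) (by have := hp.two_le; omega) with e | e | e <;> omega
  have h4d : 4 ∣ Nat.card G := hu ▸ orderOf_dvd_natCard u
  have h3 := frob_four_mul z hz huniq hp hp2 dvd_rfl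
    ((four_coprime z hz huniq hp hp2).symm.mul_dvd_of_dvd_of_dvd h4d hdp)
  rw [hca, h2, h4] at h3
  have h5 : p ∣ 3 * (1 + a) := (hca ▸ frob_prime hp hdp : p ∣ 1 + a).mul_left 3
  have h6 : p ∣ 2 + (a + 2 * a) := (Nat.dvd_add_left hpb).mp (by
    rwa [show 2 + (a + 2 * a) + b = 2 + a + (2 * a + b) by ring])
  rw [show 3 * (1 + a) = 2 + (a + 2 * a) + 1 by ring] at h5
  exact hp.not_dvd_one ((Nat.dvd_add_right h6).mp h5)

end Even

end Cfsg.Agent.FGS5.ThreeCounts
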